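import Mathlib

/-!
# Reducing central kernels to prime order, and a transfer criterion
-/

set_option autoImplicit false

universe u v

namespace Cfsg.Agent.SzC

/-- If no stem extension has kernel of prime order, all stem kernels are trivial. -/
theorem stem_reduce {G : Type v} [Group G]
    (h : ∀ (Γ : Type u) [Group Γ] [Finite Γ] (σ : Γ →* G), Function.Surjective σ →
      σ.ker ≤ Subgroup.center Γ → σ.ker ≤ commutator Γ → ¬ (Nat.card σ.ker).Prime)
    {Γ : Type u} [Group Γ] [Finite Γ] (σ : Γ →* G) (hs : Function.Surjective σ)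
    (hc : σ.ker ≤ Subgroup.center Γ) (hd : σ.ker ≤ commutator Γ) : σ.ker = ⊥ := by
  classical
  by_contra hne
  haveI : Fintype Γ := Fintype.ofFinite Γ
  -- a maximal proper subgroup of the kernel
  obtain ⟨K, hKlt, hKmax⟩ := (Set.toFinite {K : Subgroup Γ | K < σ.ker}).exists_maximal ⟨⊥, bot_lt_iff_ne_bot.mpr hne⟩
  have hKc : K ≤ Subgroup.center Γ := (le_of_lt hKlt).trans hc
  haveI : K.Normal := ⟨fun n hn g => by
    rwa [Subgroup.mem_center_iff.mp (hKc hn) g, mul_inv_cancel_right]⟩
  let π := QuotientGroup.lift K σ (le_of_lt hKlt)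
  have hker : π.ker = σ.ker.map (QuotientGroup.mk' K) := by
    ext x
    obtain ⟨g, rfl⟩ := QuotientGroup.mk'_surjective K x
    constructor
    · intro hx; exact ⟨g, hx, rfl⟩
    · rintro ⟨y, hy, e⟩
      rw [← e]; exact hy
  refine h _ π (fun x => ?_) ?_ ?_ ?_
  · obtain ⟨g, rfl⟩ := hs x
    exact ⟨QuotientGroup.mk g, rfl⟩
  · rw [hker]
    rintro _ ⟨y, hy, rfl⟩
    rw [Subgroup.mem_center_iff]
    intro x
    obtain ⟨g, rfl⟩ := QuotientGroup.mk'_surjective K x
    rw [← map_mul, ← map_mul, Subgroup.mem_center_iff.mp (hc hy) g]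
  · rw [hker]
    refine (Subgroup.map_mono hd).trans ?_
    rw [commutator_def, commutator_def, Subgroup.map_commutator]
    exact Subgroup.commutator_mono le_top le_top
  · -- no subgroups strictly between
    haveI hnt : Nontrivial π.ker := by
      rw [Subgroup.nontrivial_iff_ne_bot, hker]
      intro he
      rw [Subgroup.map_eq_bot_iff, QuotientGroup.ker_mk'] at he
      exact not_le_of_gt hKlt he
    haveI : IsSimpleGroup π.ker := ⟨fun N _ => by
      set S : Subgroup Γ := (N.map π.ker.subtype).comap (QuotientGroup.mk' K) with hS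
      have hKS : K ≤ S := fun x hx => by
        show QuotientGroup.mk' K x ∈ N.map π.ker.subtype
        rw [show QuotientGroup.mk' K x = 1 from (QuotientGroup.eq_one_iff x).mpr hx]; exact one_mem _
      have hSk : S ≤ σ.ker := fun x hx => by
        obtain ⟨y, -, e⟩ := hx
        have : QuotientGroup.mk' K x ∈ π.ker := e ▸ y.2
        exact this
      rcases hSk.lt_or_eq with hlt | heq
      · left
        have hSK : S ≤ K := hKmax hlt hKS
        rw [Subgroup.eq_bot_iff_forall]
        rintro ⟨x, hx⟩ hxN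
        obtain ⟨g, rfl⟩ := QuotientGroup.mk'_surjective K x
        apply Subtype.ext
        exact (QuotientGroup.eq_one_iff g).mpr (hSK ⟨_, hxN, rfl⟩)
      · right
        rw [Subgroup.eq_top_iff']
        rintro ⟨x, hx⟩
        obtain ⟨g, rfl⟩ := QuotientGroup.mk'_surjective K x
        have hg : g ∈ S := heq ▸ (show g ∈ σ.ker from hx)
        obtain ⟨y, hy, e⟩ := hg
        rwa [show (⟨_, hx⟩ : π.ker) = y from Subtype.ext e.symm]⟩
    letI : CommGroup π.ker :=
      { (inferInstance : Group π.ker) with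
        mul_comm := fun a b => Subtype.ext (by
          have hb : (b : Γ ⧸ K) ∈ σ.ker.map (QuotientGroup.mk' K) := hker ▸ b.2
          obtain ⟨y, hy, e⟩ := hb
          obtain ⟨g, hg⟩ := QuotientGroup.mk'_surjective K (a : Γ ⧸ K)
          show (a : Γ ⧸ K) * b = b * a
          rw [← e, ← hg, ← map_mul, ← map_mul, Subgroup.mem_center_iff.mp (hc hy) g]) }
    exact IsSimpleGroup.prime_card

/-- transfer kills a central element of the derived subgroup -/
theorem transfer_kill {Γ : Type u} [Group Γ] [Finite Γ] {A : Type*} [CommGroup A] (P : Subgroup Γ) (f : P →* A)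
    {z : Γ} (hzc : z ∈ Subgroup.center Γ) (hzd : z ∈ commutator Γ) (hzP : z ∈ P) {p : ℕ} (hzp : z ^ p = 1)
    (hp : p.Prime) (hidx : ¬ p ∣ P.index) : f ⟨z, hzP⟩ = 1 := by
  classical
  have key : ∀ (k : ℕ) (g₀ : Γ), g₀⁻¹ * z ^ k * g₀ ∈ P → g₀⁻¹ * z ^ k * g₀ = z ^ k := fun k g₀ _ => by
    rw [mul_assoc, ← Subgroup.mem_center_iff.mp (Subgroup.pow_mem _ hzc k) g₀, inv_mul_cancel_left]
  have h1 : MonoidHom.transfer f z = 1 := Abelianization.commutator_subset_ker (MonoidHom.transfer f) hzd
  rw [MonoidHom.transfer_eq_pow f z key] at h1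
  have h2 : (⟨z, hzP⟩ : P) ^ P.index = ⟨z ^ P.index, MonoidHom.transfer_eq_pow_aux z key⟩ := Subtype.ext rfl
  rw [← h2, map_pow] at h1
  have h3 : f ⟨z, hzP⟩ ^ p = 1 := by
    rw [← map_pow, show (⟨z, hzP⟩ : P) ^ p = 1 from Subtype.ext hzp, map_one]
  exact orderOf_eq_one_iff.mp (Nat.eq_one_of_dvd_coprimes ((Nat.Prime.coprime_iff_not_dvd hp).mpr hidx)
    (orderOf_dvd_of_pow_eq_one h3) (orderOf_dvd_of_pow_eq_one h1))

end Cfsg.Agent.SzC
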