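import Mathlib
import Cfsg.Agent.Lib.SzC.UnipClasses

/-!
# Invariant pairings on the field of a Suzuki group
-/

set_option autoImplicit false

namespace Cfsg.Agent.SzC

open Cfsg.Agent.SzB

variable {F : Type*} [Field F] [CharP F 2] [Fintype F] {m : ℕ} {hF : Fintype.card F = 2 ^ (2 * m + 1)}

theorem exists_generic (hm : 2 ≤ m) (hF : Fintype.card F = 2 ^ (2 * m + 1)) :
    ∃ c : F, c ≠ 0 ∧ c ≠ 1 ∧ c ^ 8 ≠ c ∧ c ^ 4 ≠ c := by
  classical
  by_contra h
  push Not at h
  let P : Polynomial F := (Polynomial.X ^ 8 - Polynomial.X) * (Polynomial.X ^ 4 - Polynomial.X)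
  have h8 : (Polynomial.X ^ 8 - Polynomial.X : Polynomial F) ≠ 0 := FiniteField.X_pow_card_sub_X_ne_zero F (by norm_num)
  have h4 : (Polynomial.X ^ 4 - Polynomial.X : Polynomial F) ≠ 0 := FiniteField.X_pow_card_sub_X_ne_zero F (by norm_num)
  have hP : P ≠ 0 := mul_ne_zero h8 h4
  have hsub : (Finset.univ : Finset F) ⊆ P.roots.toFinset := by
    intro x _
    rw [Multiset.mem_toFinset, Polynomial.mem_roots hP]
    by_cases h0 : x = 0
    · simp [P, h0]
    by_cases h1 : x = 1
    · simp [P, h1]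
    by_cases h8' : x ^ 8 = x
    · simp [P, h8']
    simp [P, h x h0 h1 h8']
  have hle := (Finset.card_le_card hsub).trans ((Multiset.toFinset_card_le _).trans (Polynomial.card_roots' P))
  have hdeg : P.natDegree = 12 := by
    rw [Polynomial.natDegree_mul h8 h4, FiniteField.X_pow_card_sub_X_natDegree_eq F (by norm_num : 1 < 8),
      FiniteField.X_pow_card_sub_X_natDegree_eq F (by norm_num : 1 < 4)]
  rw [Finset.card_univ, hF, hdeg] at hle
  have : 2 ^ 5 ≤ 2 ^ (2 * m + 1) := Nat.pow_le_pow_right (by norm_num) (by omega)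
  omega

/-- An additive function to a group. -/
theorem additive_zero {M : Type*} [Group M] {g : F → M} (hg : ∀ x y, g (x + y) = g x * g y) : g 0 = 1 := by
  have h := hg 0 0
  rw [add_zero] at h
  exact mul_eq_left.mp h.symm

/-- invariant alternating-type pairings vanish -/
theorem pairing_scalar {M : Type*} [Group M] (hm : 2 ≤ m) (hF : Fintype.card F = 2 ^ (2 * m + 1)) (B : F → F → M)
    (h1 : ∀ a a' b, B (a + a') b = B a b * B a' b) (h2 : ∀ a b b', B a (b + b') = B a b * B a b')
    (hinv : ∀ l : F, l ≠ 0 → ∀ a b, B (l * a) (l * b) = B a b) (a b : F) : B a b = 1 := by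
  obtain ⟨c, hc0, hc1, -, hc4⟩ := exists_generic hm hF
  have hg : ∀ a b, a ≠ 0 → B a b = B 1 (b / a) := fun a b ha => by
    rw [← hinv a ha 1 (b / a), mul_one, mul_div_cancel₀ _ ha]
  have hc1' : c + 1 ≠ 0 := fun e => hc1 (CharTwo.add_eq_zero.mp e)
  have hg1 : ∀ y, B 1 y = 1 := by
    intro y
    have hd : c ^ 2 + c + 1 ≠ 0 := fun e => hc4 (by linear_combination (c ^ 2 - c) * e)
    set b' := y * (c * (c + 1)) / (c ^ 2 + c + 1) with hb'
    have key := h1 c 1 b'
    rw [hg _ _ hc1', hg c _ hc0, ← h2] at key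
    have e0 : c + (c + 1) + c * (c + 1) = c ^ 2 + c + 1 := by
      linear_combination c * (CharTwo.two_eq_zero : (2 : F) = 0)
    have e : b' / (c + 1) + (b' / c + b') = y := by
      calc b' / (c + 1) + (b' / c + b') = b' * (c + (c + 1) + c * (c + 1)) / (c * (c + 1)) := by
            field_simp
            ring
        _ = y := by rw [e0, hb', div_mul_cancel₀ _ hd, mul_div_assoc, div_self (mul_ne_zero hc0 hc1'), mul_one]
    rw [← e, h2 1 (b' / (c + 1)), key, ← h2, CharTwo.add_self_eq_zero, additive_zero (fun x y => h2 1 x y)]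
  by_cases ha : a = 0
  · rw [ha, additive_zero (g := fun x => B x b) (fun x y => h1 x y b)]
  · rw [hg a b ha, hg1]

/-- invariant mixed pairings vanish -/
theorem pairing_mixed {M : Type*} [Group M] (hm : 2 ≤ m) (hF : Fintype.card F = 2 ^ (2 * m + 1)) (B : F → F → M)
    (h1 : ∀ a a' b, B (a + a') b = B a b * B a' b) (h2 : ∀ a b b', B a (b + b') = B a b * B a b')
    (hinv : ∀ u : F, u ≠ 0 → ∀ a b,
      B (a * (stdTwist hF).th u / u ^ 2) (b / (stdTwist hF).th u) = B a b) (a b : F) : B a b = 1 := by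
  set τ := stdTwist hF
  obtain ⟨c, hc0, hc1, hc8, -⟩ := exists_generic hm hF
  have hc1' : c + 1 ≠ 0 := fun e => hc1 (CharTwo.add_eq_zero.mp e)
  have hg : ∀ a b, b ≠ 0 → B a b = B (a * b / τ.th b) 1 := fun a b hb => by
    obtain ⟨u, hu⟩ := (th_bijective hF).2 b
    have hu' : τ.th u = b := hu
    have hu0 : u ≠ 0 := fun e => hb (by rw [← hu', e, map_zero])
    rw [← hinv u hu0 a b, hu', div_self hb, ← hu', Twist.th_th]
  have hg1 : ∀ y, B y 1 = 1 := by
    intro y
    set tc := τ.th c with htc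
    have htc0 : tc ≠ 0 := fun e => hc0 (τ.th_inj e)
    have htc1 : τ.th (c + 1) = tc + 1 := by rw [map_add, map_one]
    have htc1' : tc + 1 ≠ 0 := fun e => hc1' (τ.th_inj (by rw [htc1, e]))
    have hd : c + tc ^ 2 ≠ 0 := by
      intro e
      have e1 : tc ^ 2 = c := (CharTwo.add_eq_zero.mp e).symm
      have e2 : τ.th (tc ^ 2) = tc := congrArg τ.th e1
      rw [map_pow, htc, Twist.th_th, ← htc] at e2
      apply hc8
      calc c ^ 8 = ((c ^ 2) ^ 2) ^ 2 := by ring
        _ = tc ^ 2 := by rw [e2]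
        _ = c := e1
    set a := y * (tc * (tc + 1)) / (c + tc ^ 2) with ha
    have key := h2 a c 1
    rw [hg _ _ hc1', hg _ c hc0, htc1, ← htc, ← h1] at key
    have e0 : (c + 1) * tc + c * (tc + 1) + tc * (tc + 1) = c + tc ^ 2 := by
      linear_combination (c * tc + tc) * (CharTwo.two_eq_zero : (2 : F) = 0)
    have e : a * (c + 1) / (tc + 1) + (a * c / tc + a) = y := by
      calc a * (c + 1) / (tc + 1) + (a * c / tc + a)
          = a * ((c + 1) * tc + c * (tc + 1) + tc * (tc + 1)) / (tc * (tc + 1)) := by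
            field_simp
            ring
        _ = y := by rw [e0, ha, div_mul_cancel₀ _ hd, mul_div_assoc, div_self (mul_ne_zero htc0 htc1'), mul_one]
    rw [← e, h1, key, ← h1, CharTwo.add_self_eq_zero, additive_zero (g := fun x => B x 1) (fun x y => h1 x y 1)]
  by_cases hb : b = 0
  · rw [hb, additive_zero (g := fun y => B a y) (fun x y => h2 a x y)]
  · rw [hg a b hb, hg1]

/-- invariant additive functions vanish -/
theorem additive_scalar {M : Type*} [Group M] (hm : 1 ≤ m) (hF : Fintype.card F = 2 ^ (2 * m + 1)) (g : F → M)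
    (h1 : ∀ x y, g (x + y) = g x * g y) (hinv : ∀ l : F, l ≠ 0 → ∀ x, g (l * x) = g x) (x : F) : g x = 1 := by
  by_cases hx : x = 0
  · rw [hx, additive_zero h1]
  obtain ⟨c, hc⟩ := exists_unit_ne hm hF
  have e : ∀ y : F, y ≠ 0 → g y = g 1 := fun y hy => by rw [← hinv y hy 1, mul_one]
  have hc1 : (c : F) + 1 ≠ 0 := fun h => hc (Units.ext (CharTwo.add_eq_zero.mp h))
  have h := h1 (c : F) 1
  rw [e _ hc1, e _ c.ne_zero] at h
  rw [e x hx]
  exact mul_eq_left.mp h.symm

end Cfsg.Agent.SzC
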