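import Mathlib
import Cfsg.Prelude.Def_KGroupFacts
import Cfsg.Agent.Lib.SzC.StemReduce
import Cfsg.Agent.Lib.SzC.Pairings
import Cfsg.Agent.Lib.SzC.Facts

/-!
# The Schur multiplier of the Suzuki groups
-/

set_option autoImplicit false

universe u v

open scoped Matrix

namespace Cfsg.Agent.SzC

open Cfsg.Agent.SzB

/-- commutator -/
def ck {G : Type*} [Group G] (x y : G) : G := x * y * x⁻¹ * y⁻¹

theorem map_ck {G H : Type*} [Group G] [Group H] (f : G →* H) (x y : G) : f (ck x y) = ck (f x) (f y) := by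
  simp [ck]

theorem ck_eq_one {G : Type*} [Group G] {x y : G} : ck x y = 1 ↔ x * y = y * x := by
  rw [ck, mul_inv_eq_one, mul_inv_eq_iff_eq_mul]

theorem ck_congr {G : Type*} [Group G] {x x' y y' : G} (hx : x⁻¹ * x' ∈ Subgroup.center G)
    (hy : y⁻¹ * y' ∈ Subgroup.center G) : ck x y = ck x' y' := by
  obtain ⟨a, ha, rfl⟩ : ∃ a ∈ Subgroup.center G, x' = x * a := ⟨_, hx, by group⟩
  obtain ⟨b, hb, rfl⟩ : ∃ b ∈ Subgroup.center G, y' = y * b := ⟨_, hy, by group⟩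
  have ca : ∀ g, g * a = a * g := fun g => Subgroup.mem_center_iff.mp ha g
  have cb : ∀ g, g * b = b * g := fun g => Subgroup.mem_center_iff.mp hb g
  rw [ck, ck, mul_inv_rev, mul_inv_rev]
  calc x * y * x⁻¹ * y⁻¹ = x * y * (a * a⁻¹) * x⁻¹ * (b * b⁻¹) * y⁻¹ := by group
    _ = x * ((y * a) * a⁻¹ * x⁻¹ * b) * b⁻¹ * y⁻¹ := by group
    _ = x * ((a * y) * (b * (a⁻¹ * x⁻¹))) * b⁻¹ * y⁻¹ := by rw [ca y, ← cb (a⁻¹ * x⁻¹)]; group
    _ = _ := by group

theorem ck_mul_left {G : Type*} [Group G] {x x' y : G} (h : ck x' y ∈ Subgroup.center G) :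
    ck (x * x') y = ck x y * ck x' y := by
  calc ck (x * x') y = x * ck x' y * (y * x⁻¹ * y⁻¹) := by simp only [ck]; group
    _ = ck x' y * x * (y * x⁻¹ * y⁻¹) := by rw [Subgroup.mem_center_iff.mp h x]
    _ = ck x' y * ck x y := by simp only [ck]; group
    _ = _ := (Subgroup.mem_center_iff.mp h _).symm

theorem ck_mul_right {G : Type*} [Group G] {x y y' : G} (h : ck x y' ∈ Subgroup.center G) :
    ck x (y * y') = ck x y * ck x y' := by
  calc ck x (y * y') = x * y * x⁻¹ * ck x y' * y⁻¹ := by simp only [ck]; group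
    _ = x * y * x⁻¹ * (ck x y' * y⁻¹) := by group
    _ = x * y * x⁻¹ * (y⁻¹ * ck x y') := by rw [Subgroup.mem_center_iff.mp h y⁻¹]
    _ = _ := by simp only [ck]; group

theorem conj_ck {G : Type*} [Group G] (t x y : G) : t * ck x y * t⁻¹ = ck (t * x * t⁻¹) (t * y * t⁻¹) := by
  simp only [ck]; group

variable {F : Type*} [Field F] [CharP F 2] [Fintype F] {m : ℕ} (hF : Fintype.card F = 2 ^ (2 * m + 1))

/-- central involution subgroup -/
def ucen : Subgroup (SG hF) where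
  carrier := {g | ∃ b, g = uS (stdTwist hF) 0 b}
  one_mem' := ⟨0, (uS_zero _).symm⟩
  mul_mem' := by
    rintro _ _ ⟨b, rfl⟩ ⟨c, rfl⟩
    exact ⟨b + c, by rw [uS_mul, map_zero, zero_mul, add_zero, add_zero]⟩
  inv_mem' := by
    rintro _ ⟨b, rfl⟩
    exact ⟨b, by rw [uS_inv, map_zero, zero_mul, add_zero]⟩

theorem card_ucen : Nat.card (ucen hF) = 2 ^ (2 * m + 1) := by
  rw [← hF, ← Nat.card_eq_fintype_card]
  refine (Nat.card_congr (Equiv.ofBijective (fun b : F => (⟨uS (stdTwist hF) 0 b, b, rfl⟩ : ucen hF)) ⟨?_, ?_⟩)).symm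
  · intro b c h
    exact (uS_inj _ (congrArg Subtype.val h)).2
  · rintro ⟨_, b, rfl⟩; exact ⟨b, rfl⟩

set_option maxHeartbeats 800000 in
theorem no_two_kernel (hm : 2 ≤ m) {Γ : Type u} [Group Γ] [Finite Γ] (σ : Γ →* SG hF) (hs : Function.Surjective σ)
    (hc : σ.ker ≤ Subgroup.center Γ) (hd : σ.ker ≤ commutator Γ) : Nat.card σ.ker ≠ 2 := by
  classical
  intro h2
  haveI : Fintype (SG hF) := Fintype.ofFinite _
  set τ := stdTwist hF
  -- lifts
  choose L hL using hs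
  have hz2 : ∀ z ∈ σ.ker, z * z = 1 := fun z hz => by
    have := pow_card_eq_one' (x := (⟨z, hz⟩ : σ.ker))
    rw [h2, pow_two] at this
    exact congrArg Subtype.val this
  have hcen : ∀ {x y : Γ}, σ x = σ y → x⁻¹ * y ∈ Subgroup.center Γ := fun h => hc (by
    rw [MonoidHom.mem_ker, map_mul, map_inv, h, inv_mul_cancel])
  have hkerc : ∀ {x : Γ}, σ x = 1 → x ∈ Subgroup.center Γ := fun h => hc (MonoidHom.mem_ker.mpr h)
  set l : F → F → Γ := fun a b => L (uS τ a b) with hl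
  have hlσ : ∀ a b, σ (l a b) = uS τ a b := fun a b => hL _
  set P : Subgroup Γ := (unip τ).comap σ with hP
  set Q : Subgroup Γ := (ucen hF).comap σ with hQ
  have hQP : Q ≤ P := by rintro x ⟨b, hb⟩; exact ⟨0, b, hb⟩
  have hker : σ.ker ≤ Q := fun x hx => ⟨0, by rw [MonoidHom.mem_ker.mp hx, uS_zero]⟩
  set T : Fˣ → Γ := fun u => L (tS τ u) with hT
  have hTconj : ∀ (u : Fˣ) (a b : F), σ (T u * l a b * (T u)⁻¹) =
      uS τ (a * τ.th (u⁻¹ : Fˣ) / ((u⁻¹ : Fˣ) : F) ^ 2) (b / τ.th (u⁻¹ : Fˣ)) := by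
    intro u a b
    rw [map_mul, map_mul, map_inv, hlσ, hT, hL, tS_uS]
  -- the centre part is abelian
  have hQQ : ∀ b b', ck (l 0 b) (l 0 b') = 1 := by
    have hk : ∀ b b', σ (ck (l 0 b) (l 0 b')) = 1 := fun b b' => by
      rw [map_ck, hlσ, hlσ, ck_eq_one, uS_mul, uS_mul, map_zero, zero_mul, add_comm b]
    refine fun b b' => pairing_scalar hm hF (fun b b' => ck (l 0 b) (l 0 b')) ?_ ?_ ?_ b b'
    · intro a a' c
      rw [← ck_mul_left (hkerc (hk _ _))]
      refine ck_congr (hcen ?_) (hcen rfl)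
      rw [map_mul, hlσ, hlσ, hlσ, uS_mul, map_zero, zero_mul, add_zero, add_zero]
    · intro a c c'
      rw [← ck_mul_right (hkerc (hk _ _))]
      refine ck_congr (hcen rfl) (hcen ?_)
      rw [map_mul, hlσ, hlσ, hlσ, uS_mul, map_zero, zero_mul, add_zero, add_zero]
    · intro r hr a c
      obtain ⟨w, hw⟩ := (th_bijective hF).2 r
      have hw0 : w ≠ 0 := fun e => hr (by rw [← hw, e, map_zero])
      set t := T (Units.mk0 w hw0)
      have e : ∀ x, σ (t * l 0 x * t⁻¹) = σ (l 0 (r * x)) := fun x => by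
        rw [hTconj, hlσ]
        simp only [zero_mul, zero_div, Units.val_inv_eq_inv_val, Units.val_mk0, map_inv₀, div_inv_eq_mul]
        rw [show τ.th w = r from hw, mul_comm]
      calc ck (l 0 (r * a)) (l 0 (r * c)) = ck (t * l 0 a * t⁻¹) (t * l 0 c * t⁻¹) :=
            (ck_congr (hcen (e a)) (hcen (e c))).symm
        _ = t * ck (l 0 a) (l 0 c) * t⁻¹ := (conj_ck _ _ _).symm
        _ = _ := by rw [Subgroup.mem_center_iff.mp (hkerc (hk a c)) t, mul_inv_cancel_right]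
  -- it centralises the preimage
  have hPQ : ∀ a b, ck (l a 0) (l 0 b) = 1 := by
    have hk : ∀ a b, σ (ck (l a 0) (l 0 b)) = 1 := fun a b => by
      rw [map_ck, hlσ, hlσ, ck_eq_one, uS_mul, uS_mul, map_zero, zero_mul, mul_zero]
      simp [add_comm]
    refine fun a b => pairing_mixed hm hF (fun a b => ck (l a 0) (l 0 b)) ?_ ?_ ?_ a b
    · intro a a' c
      rw [← ck_mul_left (hkerc (hk _ _))]
      have e : (l (a + a') 0)⁻¹ * (l a 0 * l a' 0 * l 0 (τ.th a * a')) ∈ Subgroup.center Γ := hcen (by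
        rw [map_mul, map_mul, hlσ, hlσ, hlσ, hlσ, uS_mul, uS_mul, add_zero, mul_zero, add_zero, add_zero,
          zero_add, CharTwo.add_self_eq_zero])
      have h1 : ck (l a' 0 * l 0 (τ.th a * a')) (l 0 c) = ck (l a' 0) (l 0 c) := by
        rw [ck_mul_left (by rw [hQQ]; exact one_mem _), hQQ, mul_one]
      calc ck (l (a + a') 0) (l 0 c) = ck (l a 0 * (l a' 0 * l 0 (τ.th a * a'))) (l 0 c) :=
            ck_congr (by rw [← mul_assoc (l a 0)]; exact e) (hcen rfl)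
        _ = ck (l a 0) (l 0 c) * ck (l a' 0) (l 0 c) := by
            rw [ck_mul_left (by rw [h1]; exact hkerc (hk _ _)), h1]
        _ = _ := (ck_mul_left (hkerc (hk _ _))).symm
    · intro a c c'
      rw [← ck_mul_right (hkerc (hk _ _))]
      refine ck_congr (hcen rfl) (hcen ?_)
      rw [map_mul, hlσ, hlσ, hlσ, uS_mul, map_zero, zero_mul, add_zero, add_zero]
    · intro u hu a b
      set t := T (Units.mk0 u hu)⁻¹
      have e1 : σ (t * l a 0 * t⁻¹) = σ (l (a * τ.th u / u ^ 2) 0) := by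
        rw [hTconj, hlσ, inv_inv, Units.val_mk0, zero_div]
      have e2 : σ (t * l 0 b * t⁻¹) = σ (l 0 (b / τ.th u)) := by
        rw [hTconj, hlσ, inv_inv, Units.val_mk0, zero_mul, zero_div]
      calc ck (l (a * τ.th u / u ^ 2) 0) (l 0 (b / τ.th u)) = ck (t * l a 0 * t⁻¹) (t * l 0 b * t⁻¹) :=
            (ck_congr (hcen e1) (hcen e2)).symm
        _ = t * ck (l a 0) (l 0 b) * t⁻¹ := (conj_ck _ _ _).symm
        _ = _ := by rw [Subgroup.mem_center_iff.mp (hkerc (hk a b)) t, mul_inv_cancel_right]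
  have hQcen : ∀ x ∈ P, ∀ y ∈ Q, ck x y = 1 := by
    rintro x ⟨a, b, hab⟩ y ⟨c, hc'⟩
    have e1 : σ x = σ (l a 0 * l 0 b) := by
      rw [map_mul, hlσ, hlσ, uS_mul, hab, add_zero, zero_add, mul_zero, add_zero]
    rw [ck_congr (hcen e1) (hcen (show σ y = σ (l 0 c) by rw [hlσ]; exact hc'))]
    rw [ck_mul_left (by rw [hQQ]; exact one_mem _), hPQ, hQQ, one_mul]
  have hQcomm : ∀ x ∈ P, ∀ y ∈ Q, x * y = y * x := fun x hx y hy => ck_eq_one.mp (hQcen x hx y hy)
  -- squares in the centre part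
  have hQsq : ∀ y ∈ Q, y * y = 1 := by
    have hk : ∀ b, σ (l 0 b * l 0 b) = 1 := fun b => by
      rw [map_mul, hlσ, uS_mul, map_zero, zero_mul, add_zero, add_zero, CharTwo.add_self_eq_zero, uS_zero]
    have hwd : ∀ y b, σ y = uS τ 0 b → y * y = l 0 b * l 0 b := by
      intro y b h
      have hz : (l 0 b)⁻¹ * y ∈ σ.ker := by rw [MonoidHom.mem_ker, map_mul, map_inv, hlσ, h, inv_mul_cancel]
      set z := (l 0 b)⁻¹ * y
      have hy : y = l 0 b * z := by simp [z]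
      rw [hy]
      calc l 0 b * z * (l 0 b * z) = l 0 b * (z * l 0 b) * z := by group
        _ = l 0 b * (l 0 b * z) * z := by rw [Subgroup.mem_center_iff.mp (hc hz) (l 0 b)]
        _ = l 0 b * l 0 b * (z * z) := by group
        _ = _ := by rw [hz2 z hz, mul_one]
    have h0 : ∀ b, l 0 b * l 0 b = 1 := by
      intro b
      refine additive_scalar (by omega : 1 ≤ m) hF (fun b => l 0 b * l 0 b) ?_ ?_ b
      · intro x y
        have hcomm : l 0 x * l 0 y = l 0 y * l 0 x := ck_eq_one.mp (hQQ x y)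
        rw [← hwd (l 0 x * l 0 y) (x + y) (by rw [map_mul, hlσ, hlσ, uS_mul, map_zero, zero_mul, add_zero, add_zero])]
        calc l 0 x * l 0 y * (l 0 x * l 0 y) = l 0 x * (l 0 y * l 0 x) * l 0 y := by group
          _ = _ := by rw [← hcomm]; group
      · intro r hr x
        obtain ⟨w, hw⟩ := (th_bijective hF).2 r
        have hw0 : w ≠ 0 := fun e => hr (by rw [← hw, e, map_zero])
        set t := T (Units.mk0 w hw0)
        rw [← hwd (t * l 0 x * t⁻¹) (r * x) (by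
          rw [hTconj]
          simp only [zero_mul, zero_div, Units.val_inv_eq_inv_val, Units.val_mk0, map_inv₀, div_inv_eq_mul]
          rw [show τ.th w = r from hw, mul_comm])]
        calc t * l 0 x * t⁻¹ * (t * l 0 x * t⁻¹) = t * (l 0 x * l 0 x) * t⁻¹ := by group
          _ = _ := by rw [Subgroup.mem_center_iff.mp (hkerc (hk x)) t, mul_inv_cancel_right]
    rintro y ⟨b, hb⟩
    rw [hwd y b hb, h0]
  -- a complement to the kernel inside the centre part
  obtain ⟨v, hv⟩ := exists_unit_ne (by omega : 1 ≤ m) hF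
  set t := T v
  have hTQ : ∀ u, ∀ x ∈ Q, T u * x * (T u)⁻¹ ∈ Q := by
    rintro u x ⟨b, hb⟩
    exact ⟨b / τ.th (u⁻¹ : Fˣ), by rw [map_mul, map_mul, map_inv, hb, hT, hL, tS_uS, zero_mul, zero_div]⟩
  let ψ : Q →* Q :=
    MonoidHom.mk' (fun x => ⟨t * x * t⁻¹ * (x : Γ)⁻¹, mul_mem (hTQ v x x.2) (inv_mem x.2)⟩) (fun x y => by
      apply Subtype.ext
      have h1 : (t * y * t⁻¹ * (y : Γ)⁻¹) * (x : Γ)⁻¹ = (x : Γ)⁻¹ * (t * y * t⁻¹ * (y : Γ)⁻¹) :=
        hQcomm _ (hQP (mul_mem (hTQ v y y.2) (inv_mem y.2))) _ (inv_mem x.2)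
      show t * ((x : Γ) * y) * t⁻¹ * ((x : Γ) * y)⁻¹ = t * x * t⁻¹ * (x : Γ)⁻¹ * (t * y * t⁻¹ * (y : Γ)⁻¹)
      calc t * ((x : Γ) * y) * t⁻¹ * ((x : Γ) * y)⁻¹
          = t * x * t⁻¹ * ((t * y * t⁻¹ * (y : Γ)⁻¹) * (x : Γ)⁻¹) := by group
        _ = _ := by rw [h1]; group)
  set W : Subgroup Γ := ψ.range.map Q.subtype with hW
  have hWmem : ∀ {w}, w ∈ W ↔ ∃ x ∈ Q, t * x * t⁻¹ * x⁻¹ = w := by
    intro w
    constructor
    · rintro ⟨_, ⟨x, rfl⟩, rfl⟩; exact ⟨x, x.2, rfl⟩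
    · rintro ⟨x, hx, rfl⟩; exact ⟨ψ ⟨x, hx⟩, ⟨_, rfl⟩, rfl⟩
  have hWQ : W ≤ Q := by rintro _ ⟨y, -, rfl⟩; exact y.2
  have hfix : ∀ x ∈ Q, t * x * t⁻¹ * x⁻¹ ∈ σ.ker → x ∈ σ.ker := by
    rintro x ⟨b, hb⟩ hk
    rw [MonoidHom.mem_ker, map_mul, map_mul, map_mul, map_inv, map_inv, hb,
      show σ t = tS τ v from hL _, tS_uS, zero_mul, zero_div, mul_inv_eq_one] at hk
    have h := (uS_inj τ hk).2
    rw [MonoidHom.mem_ker, hb]
    by_cases hb0 : b = 0
    · rw [hb0, uS_zero]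
    · exfalso
      have hne : τ.th ((v⁻¹ : Fˣ) : F) ≠ 0 := fun e => (v⁻¹ : Fˣ).ne_zero (τ.th_inj e)
      rw [div_eq_iff hne] at h
      have h1 : τ.th ((v⁻¹ : Fˣ) : F) = 1 := (mul_eq_left₀ hb0).mp h.symm
      exact hv (inv_eq_one.mp (Units.ext (τ.th.injective (by rw [h1, Units.val_one, map_one]))))
  have hWker : ∀ w ∈ W, w ∈ σ.ker → w = 1 := by
    intro w hw hk
    obtain ⟨x, hx, rfl⟩ := hWmem.mp hw
    rw [Subgroup.mem_center_iff.mp (hc (hfix x hx hk)) t, mul_inv_cancel_right, mul_inv_cancel]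
  have hdec : ∀ q ∈ Q, ∃ z ∈ σ.ker, ∃ w ∈ W, q = z * w := by
    have hkψ : ψ.ker = σ.ker.subgroupOf Q := by
      ext x
      rw [MonoidHom.mem_ker, Subgroup.mem_subgroupOf]
      constructor
      · intro h
        exact hfix x x.2 (by rw [show t * x * t⁻¹ * (x : Γ)⁻¹ = 1 from congrArg Subtype.val h]; exact one_mem _)
      · intro h
        apply Subtype.ext
        show t * x * t⁻¹ * (x : Γ)⁻¹ = 1
        rw [Subgroup.mem_center_iff.mp (hc h) t, mul_inv_cancel_right, mul_inv_cancel]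
    have hcard : Nat.card σ.ker * Nat.card W = Nat.card Q := by
      rw [hW, Subgroup.card_map_of_injective Q.subtype_injective,
        ← Nat.card_congr (Subgroup.subgroupOfEquivOfLe hker).toEquiv, ← hkψ, ← Subgroup.index_ker,
        Subgroup.card_mul_index]
    let f : σ.ker × W → Q := fun p => ⟨p.1.1 * p.2.1, mul_mem (hker p.1.2) (hWQ p.2.2)⟩
    have hf : Function.Injective f := by
      rintro ⟨z, w⟩ ⟨z', w'⟩ h
      have h' : z.1 * w.1 = z'.1 * w'.1 := congrArg Subtype.val h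
      have e : w'.1 * w.1⁻¹ = z'.1⁻¹ * z.1 := by
        calc w'.1 * w.1⁻¹ = z'.1⁻¹ * (z'.1 * w'.1) * w.1⁻¹ := by group
          _ = _ := by rw [← h']; group
      have h1 := hWker _ (mul_mem w'.2 (inv_mem w.2)) (by rw [e]; exact mul_mem (inv_mem z'.2) z.2)
      rw [mul_inv_eq_one] at h1
      rw [h1] at h'
      rw [Subtype.ext h1, Subtype.ext (mul_right_cancel h')]
    intro q hq
    obtain ⟨⟨z, w⟩, he⟩ :=
      (hf.bijective_of_nat_card_le (by rw [Nat.card_prod, hcard])).2 ⟨q, hq⟩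
    exact ⟨z, z.2, w, w.2, (congrArg Subtype.val he).symm⟩
  have hWN : ∀ u, ∀ w ∈ W, T u * w * (T u)⁻¹ ∈ W := by
    intro u w hw
    obtain ⟨x, hx, rfl⟩ := hWmem.mp hw
    refine hWmem.mpr ⟨T u * x * (T u)⁻¹, hTQ u x hx, ?_⟩
    have hcomm : ((T u * t)⁻¹ * (t * T u)) ∈ Subgroup.center Γ := hcen (by
      rw [map_mul, map_mul, hT, hL, hL, ← map_mul, ← map_mul, mul_comm])
    set z := (T u * t)⁻¹ * (t * T u)
    have e : t * T u = T u * t * z := by simp only [z]; group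
    calc t * (T u * x * (T u)⁻¹) * t⁻¹ * (T u * x * (T u)⁻¹)⁻¹
        = (t * T u) * x * (t * T u)⁻¹ * (T u * x⁻¹ * (T u)⁻¹) := by group
      _ = T u * t * z * x * z⁻¹ * t⁻¹ * (T u)⁻¹ * (T u * x⁻¹ * (T u)⁻¹) := by rw [e]; group
      _ = T u * t * (x * z) * z⁻¹ * t⁻¹ * x⁻¹ * (T u)⁻¹ := by
          rw [Subgroup.mem_center_iff.mp hcomm x]; group
      _ = _ := by group
  have hmod : ∀ u, ∀ q ∈ Q, (T u * q * (T u)⁻¹) * q⁻¹ ∈ W ∨ σ q ≠ 1 := by
    intro u q hq
    by_cases h : σ q = 1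
    · left
      rw [Subgroup.mem_center_iff.mp (hkerc h) (T u), mul_inv_cancel_right, mul_inv_cancel]
      exact one_mem _
    · exact Or.inr h
  -- the quotient by the complement
  haveI hWn : (W.subgroupOf P).Normal := ⟨fun n hn g => by
    rw [Subgroup.mem_subgroupOf] at hn ⊢
    show (g : Γ) * n * (g : Γ)⁻¹ ∈ W
    rw [hQcomm g g.2 n (hWQ hn), mul_inv_cancel_right]
    exact hn⟩
  set π : P →* P ⧸ W.subgroupOf P := QuotientGroup.mk' _
  have hπz : ∀ q : P, (q : Γ) ∈ Q → ∀ u, ∀ hq' : T u * q * (T u)⁻¹ ∈ P, π ⟨T u * q * (T u)⁻¹, hq'⟩ = π q := by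
    intro q hq u hq'
    obtain ⟨z, hz, w, hw, e⟩ := hdec q hq
    refine (QuotientGroup.eq.mpr ?_).symm
    rw [Subgroup.mem_subgroupOf]
    show (q : Γ)⁻¹ * (T u * q * (T u)⁻¹) ∈ W
    have e2 : T u * q * (T u)⁻¹ = z * (T u * w * (T u)⁻¹) := by
      rw [e]
      calc T u * (z * w) * (T u)⁻¹ = (T u * z) * w * (T u)⁻¹ := by group
        _ = _ := by rw [Subgroup.mem_center_iff.mp (hc hz) (T u)]; group
    rw [e2, e, mul_inv_rev, mul_assoc, inv_mul_cancel_left]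
    exact mul_mem (inv_mem hw) (hWN u w hw)
  have hckQ : ∀ x ∈ P, ∀ y ∈ P, ck x y ∈ Q := by
    rintro x ⟨a, b, hab⟩ y ⟨c, d, hcd⟩
    refine ⟨τ.th a * c + τ.th c * a, ?_⟩
    rw [map_ck, hab, hcd, ck, mul_inv_eq_iff_eq_mul, mul_inv_eq_iff_eq_mul]
    rw [uS_mul, uS_mul, uS_mul, map_zero, zero_mul, add_zero, zero_add]
    congr 1
    · rw [add_comm]
    · linear_combination (norm := (simp only [τ]; ring_nf)) -(CharTwo.add_self_eq_zero (τ.th c * a) : τ.th c * a + τ.th c * a = 0)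
  have hlP : ∀ a b, l a b ∈ P := fun a b => ⟨a, b, hlσ a b⟩
  have hckcong : ∀ x ∈ P, ∀ y ∈ P, ∀ x' ∈ P, ∀ q ∈ Q, σ x = σ (x' * q) → ck x y = ck x' y := by
    intro x hx y hy x' hx' q hq h
    rw [ck_congr (hcen h) (hcen rfl)]
    have h1 : ck q y = 1 := ck_eq_one.mpr (hQcomm y hy q hq).symm
    rw [ck_mul_left (by rw [h1]; exact one_mem _), h1, mul_one]
  have hswap : ∀ x y : Γ, ck y x = (ck x y)⁻¹ := fun x y => by simp only [ck]; group
  have hbil : ∀ a c, π ⟨ck (l a 0) (l c 0), hQP (hckQ _ (hlP a 0) _ (hlP c 0))⟩ = 1 := by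
    refine fun a c => pairing_scalar hm hF
      (fun a c => π ⟨ck (l a 0) (l c 0), hQP (hckQ _ (hlP a 0) _ (hlP c 0))⟩) ?_ ?_ ?_ a c
    · intro a a' c
      rw [← map_mul]
      congr 1
      apply Subtype.ext
      show ck (l (a + a') 0) (l c 0) = ck (l a 0) (l c 0) * ck (l a' 0) (l c 0)
      have hq := hckQ _ (hlP a' 0) _ (hlP c 0)
      rw [hckcong _ (hlP _ _) _ (hlP c 0) (l a 0 * l a' 0) (mul_mem (hlP _ _) (hlP _ _)) (l 0 (τ.th a * a'))
        ⟨_, hlσ _ _⟩ (by rw [map_mul, map_mul, hlσ, hlσ, hlσ, hlσ, uS_mul, uS_mul, add_zero, mul_zero, add_zero,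
          add_zero, zero_add, CharTwo.add_self_eq_zero])]
      calc ck (l a 0 * l a' 0) (l c 0) = l a 0 * ck (l a' 0) (l c 0) * (l c 0 * (l a 0)⁻¹ * (l c 0)⁻¹) := by
            simp only [ck]; group
        _ = ck (l a' 0) (l c 0) * ck (l a 0) (l c 0) := by
            rw [hQcomm _ (hlP a 0) _ hq]; simp only [ck]; group
        _ = _ := (hQcomm _ (hQP (hckQ _ (hlP a 0) _ (hlP c 0))) _ hq).symm
    · intro a c c'
      rw [← map_mul]
      congr 1
      apply Subtype.ext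
      show ck (l a 0) (l (c + c') 0) = ck (l a 0) (l c 0) * ck (l a 0) (l c' 0)
      have hq := hckQ _ (hlP a 0) _ (hlP c' 0)
      rw [hswap, hckcong _ (hlP _ _) _ (hlP a 0) (l c 0 * l c' 0) (mul_mem (hlP _ _) (hlP _ _)) (l 0 (τ.th c * c'))
        ⟨_, hlσ _ _⟩ (by rw [map_mul, map_mul, hlσ, hlσ, hlσ, hlσ, uS_mul, uS_mul, add_zero, mul_zero, add_zero,
          add_zero, zero_add, CharTwo.add_self_eq_zero]), ← hswap]
      calc ck (l a 0) (l c 0 * l c' 0)
          = l a 0 * l c 0 * (l a 0)⁻¹ * (ck (l a 0) (l c' 0) * (l c 0)⁻¹) := by simp only [ck]; group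
        _ = _ := by rw [← hQcomm _ (inv_mem (hlP c 0)) _ hq]; simp only [ck]; group
    · intro r hr a c
      obtain ⟨u, hu⟩ := (units_mult_bijective hF).2 (Units.mk0 r hr)
      have hu' : τ.th (u : F) * ((u : F) ^ 2)⁻¹ = r := by simpa using congrArg Units.val hu
      set t' := T u⁻¹
      have e : ∀ x, σ (t' * l x 0 * t'⁻¹) = σ (l (r * x) 0) := fun x => by
        rw [hTconj, hlσ, inv_inv, zero_div]
        congr 1
        rw [mul_div_assoc, div_eq_mul_inv, hu', mul_comm]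
      have h1 : ck (l (r * a) 0) (l (r * c) 0) = t' * ck (l a 0) (l c 0) * t'⁻¹ := by
        rw [conj_ck]; exact (ck_congr (hcen (e a)) (hcen (e c))).symm
      have hm' : t' * ck (l a 0) (l c 0) * t'⁻¹ ∈ P := h1 ▸ hQP (hckQ _ (hlP _ 0) _ (hlP _ 0))
      show π ⟨ck (l (r * a) 0) (l (r * c) 0), _⟩ = π ⟨ck (l a 0) (l c 0), _⟩
      rw [← hπz ⟨ck (l a 0) (l c 0), hQP (hckQ _ (hlP _ 0) _ (hlP _ 0))⟩ (hckQ _ (hlP _ 0) _ (hlP _ 0)) u⁻¹ hm']
      congr 1
      exact Subtype.ext h1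
  have hab : ∀ x y : P ⧸ W.subgroupOf P, x * y = y * x := by
    intro x y
    obtain ⟨⟨x, hx⟩, rfl⟩ := QuotientGroup.mk'_surjective _ x
    obtain ⟨⟨y, hy⟩, rfl⟩ := QuotientGroup.mk'_surjective _ y
    obtain ⟨a, b, hab⟩ := id hx
    obtain ⟨c, d, hcd⟩ := id hy
    have e : ck x y = ck (l a 0) (l c 0) := by
      rw [hckcong x hx y hy (l a 0) (hlP a 0) (l 0 b) ⟨b, hlσ 0 b⟩
        (by rw [map_mul, hlσ, hlσ, uS_mul, hab, add_zero, zero_add, mul_zero, add_zero]), hswap,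
        hckcong y hy (l a 0) (hlP a 0) (l c 0) (hlP c 0) (l 0 d) ⟨d, hlσ 0 d⟩
        (by rw [map_mul, hlσ, hlσ, uS_mul, hcd, add_zero, zero_add, mul_zero, add_zero]), ← hswap]
    have h1 : π ⟨ck x y, hQP (hckQ x hx y hy)⟩ = 1 := by
      rw [← hbil a c]
      congr 1
      exact Subtype.ext e
    have h2 : ck (π ⟨x, hx⟩) (π ⟨y, hy⟩) = 1 := by
      rw [← map_ck, ← h1]
      congr 1
    exact ck_eq_one.mp h2
  letI : CommGroup (P ⧸ W.subgroupOf P) :=
    { (inferInstance : Group (P ⧸ W.subgroupOf P)) with mul_comm := hab }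
  obtain ⟨z, hz, hz1⟩ : ∃ z ∈ σ.ker, z ≠ 1 := by
    by_contra hcon
    push Not at hcon
    rw [(Subgroup.eq_bot_iff_forall _).mpr hcon, Subgroup.card_bot] at h2
    norm_num at h2
  have hidx : ¬ 2 ∣ P.index := by
    rw [hP, Subgroup.index_comap_of_surjective _ (fun g => ⟨L g, hL g⟩)]
    intro h
    have h1 := (unip τ).card_mul_index
    rw [card_unip, card_group, hF, mul_assoc] at h1
    have h2 := Nat.eq_of_mul_eq_mul_left (by positivity) h1
    rw [h2] at h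
    have hev : Even (2 ^ (2 * m + 1)) := by simp [Nat.even_pow]
    exact (Nat.not_even_iff_odd.mpr ((Nat.Even.sub_odd Nat.one_le_two_pow hev odd_one).mul
      (Even.add_odd (by simp [Nat.even_pow]) odd_one))) (even_iff_two_dvd.mpr h)
  have := transfer_kill P π (hc hz) (hd hz) (hQP (hker hz)) (by rw [pow_two]; exact hz2 z hz) Nat.prime_two hidx
  have hzW : z ∈ W := Subgroup.mem_subgroupOf.mp ((QuotientGroup.eq_one_iff _).mp this)
  exact hz1 (hWker z hzW hz)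

theorem no_odd_kernel {Γ : Type u} [Group Γ] [Finite Γ] (σ : Γ →* SG hF) (hs : Function.Surjective σ)
    (hc : σ.ker ≤ Subgroup.center Γ) (hd : σ.ker ≤ commutator Γ) {p : ℕ} (hp : p.Prime) (hp2 : p ≠ 2) :
    Nat.card σ.ker ≠ p := by
  intro hk
  haveI := Fact.mk hp
  let R : Sylow p (SG hF) := default
  haveI := sylow_odd_cyclic hF hp2 R
  set P : Subgroup Γ := (R : Subgroup (SG hF)).comap σ
  let f : P →* (R : Subgroup (SG hF)) := (σ.comp P.subtype).codRestrict _ (fun x => x.2)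
  have hf : f.ker ≤ Subgroup.center P := by
    intro x hx
    rw [Subgroup.mem_center_iff]
    intro y
    exact Subtype.ext (Subgroup.mem_center_iff.mp
      (hc (MonoidHom.mem_ker.mpr (congrArg Subtype.val (MonoidHom.mem_ker.mp hx)))) y)
  letI : CommGroup P :=
    { (inferInstance : Group P) with mul_comm := fun a b => commutative_of_cyclic_center_quotient f hf a b }
  obtain ⟨z, hz, hz1⟩ : ∃ z ∈ σ.ker, z ≠ 1 := by
    by_contra hcon
    push Not at hcon
    rw [(Subgroup.eq_bot_iff_forall _).mpr hcon, Subgroup.card_bot] at hk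
    exact hp.one_lt.ne hk
  have hzP : z ∈ P := by
    show σ z ∈ (R : Subgroup (SG hF))
    rw [MonoidHom.mem_ker.mp hz]; exact one_mem _
  have hzp : z ^ p = 1 := by
    have := pow_card_eq_one' (x := (⟨z, hz⟩ : σ.ker))
    rw [hk] at this
    exact congrArg Subtype.val this
  have h := transfer_kill P (MonoidHom.id P) (hc hz) (hd hz) hzP hzp hp (by
    rw [Subgroup.index_comap_of_surjective _ hs]; exact R.not_dvd_index)
  exact hz1 (congrArg Subtype.val h)

theorem sz_center_trivial (hm : 1 ≤ m) : Subgroup.center (SG hF) = ⊥ := by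
  rw [Subgroup.eq_bot_iff_forall]
  intro x hx
  have hc : ∀ g, g * x = x * g := fun g => Subgroup.mem_center_iff.mp hx g
  set τ := stdTwist hF
  obtain ⟨a, b, hab⟩ := cent_center τ one_ne_zero (hc (uS τ 0 1)).symm
  obtain ⟨u, hu⟩ := exists_unit_ne hm hF
  obtain ⟨v, hv⟩ := cent_torus τ hu (hc (tS τ u)).symm
  have h := sc_uS τ a b
  rw [← hab, ← hv, sc_tS] at h
  rw [← hv, show v = 1 from Units.ext h, map_one]

theorem sz_multiplier (hm : 2 ≤ m) : Cfsg.HasCyclicSchurMultiplier (SG hF) 1 := by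
  refine ⟨⟨SG hF, inferInstance, inferInstance, MonoidHom.id _, ⟨fun x => ⟨x, rfl⟩, ?_, ?_⟩, ?_⟩, ?_⟩
  · intro x hx
    rw [show x = 1 from hx]; exact one_mem _
  · intro x hx
    rw [show x = 1 from hx]; exact one_mem _
  · haveI : Subsingleton (MonoidHom.id (SG hF)).ker := ⟨fun a b => Subtype.ext (by
      rw [show (a : SG hF) = 1 from a.2, show (b : SG hF) = 1 from b.2])⟩
    haveI : Subsingleton (Multiplicative (ZMod 1)) := inferInstanceAs (Subsingleton (ZMod 1))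
    haveI : Unique (MonoidHom.id (SG hF)).ker := uniqueOfSubsingleton 1
    haveI : Unique (Multiplicative (ZMod 1)) := uniqueOfSubsingleton 1
    exact ⟨MulEquiv.ofUnique⟩
  · intro Γ _ _ σ hσ
    have hbot : σ.ker = ⊥ := stem_reduce (fun Γ _ _ σ hs hc hd hp => by
      by_cases h2 : Nat.card σ.ker = 2
      · exact no_two_kernel hF hm σ hs hc hd h2
      · exact no_odd_kernel hF σ hs hc hd hp h2 rfl) σ hσ.1 hσ.2.1 hσ.2.2
    refine ⟨1, fun y => ⟨1, Subtype.ext ?_⟩⟩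
    have this : (y : Γ) ∈ (⊥ : Subgroup Γ) := hbot.le y.2
    rw [Subgroup.mem_bot] at this
    rw [this]; rfl

end Cfsg.Agent.SzC
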